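import Cfsg.Agent.H332.RC.GrPsp
import Cfsg.Agent.H327.RC.GrOne

/-!
# S3510, row D, `Sp_4(q)`, `q ≥ 4` even: box GR (helper332)

* `gr_rule` : no cover contains an element which does not induce a semisimilitude; `hM2O` = box M2O
-/

set_option autoImplicit false

namespace Cfsg.Agent.H332.RC

open Cfsg Cfsg.Agent.H106.RC Cfsg.Agent.H385.RC

/-- **Box GR.** -/
theorem gr_rule {F : Type} [Field F] [Finite F] (h2 : (2 : F) = 0) (hq : 3 ≤ Nat.card F) {G Ω : Type} [Group G]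
    [Finite G] [MulAction G Ω] [Nonempty Ω] {N : Subgroup G} (hE : Env G Ω N) (e : N ≃* PSp 2 F)
    (hIH : IH (Nat.card (PSp 2 F)))
    (hA6 : ∀ g : MulAut (alternatingGroup (Fin 6)), orderOf g ≠ 6 → RCe (alternatingGroup (Fin 6)) g)
    {ι : Type} [Finite ι] {x : ι → G} {r : ι → ℕ} (hx : PF x r) (hcov : Cov Ω x) (i0 : ι)
    (hi0 : ¬ IndPsi e (x i0))
    (hM2O : ∀ (κ : Type) [Finite κ] (x' : κ → G) (r' : κ → ℕ), PF x' r' → Cov Ω x' → (∀ k, x' k ∈ N) →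
      (∀ k, r' k ≠ 2) → False) : False := by
  by_cases h : ∀ j, j ≠ i0 → x j ∈ N
  · exact gr_two_psp h2 hq hE e hx hcov i0 hi0 h fun κ _ y s => hM2O κ y s
  · push Not at h
    obtain ⟨j, hj0, hj⟩ := h
    exact Cfsg.Agent.H327.RC.gr_one h2 hq hE e hIH hA6 hx hcov i0 hi0 j hj0 hj

end Cfsg.Agent.H332.RC
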